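import Cfsg.Agent.H751.TitsK.Deg
import Cfsg.Agent.H476.Conj.Tits
import Cfsg.Agent.H408.TitsMod

/-!
# The Tits group has no representation of degree `< 24` in characteristic `≠ 5` (helper751)
-/

set_option autoImplicit false

namespace Cfsg.Agent.H751.TitsK

open Subgroup Cfsg

universe u

/-- a subgroup of order 25 whose nontrivial elements are fused in the normaliser -/
def FiveN (G : Type u) [Group G] : Prop :=
  ∃ P : Subgroup G, Nat.card P = 25 ∧ ∀ x ∈ P, x ≠ 1 → ∀ y ∈ P, y ≠ 1 →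
    ∃ s ∈ normalizer (P : Set G), s * x * s⁻¹ = y

theorem fiveN_C : FiveN Cfsg.Agent.Omega.TwoF.Tits.C :=
  ⟨Cfsg.Agent.CpAutTits.Fus.P, Cfsg.Agent.CpAutTits.Fus.card_P, fun _ hx hx1 _ hy hy1 =>
    Cfsg.Agent.CpAutTits.Fus.fus hx hx1 hy hy1⟩

theorem fiveN_aux (K : Subgroup (Matrix.GeneralLinearGroup Cfsg.Agent.ChevalleyStructure.Tits.Mat.I52 (ZMod 2)))
    (hK : K = Cfsg.Agent.ChevalleyStructure.Tits.Order.H0) : FiveN ↥(_root_.commutator K) := by
  subst hK
  exact fiveN_C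

theorem fiveN_tits : FiveN Cfsg.Lie.TitsGroup :=
  fiveN_aux (Cfsg.Lie.twistedF4 (ZMod 2) 1) Cfsg.Agent.ChevalleyStructure.Tits.Main.T0_eq_H0

open Matrix in
theorem deg_tits {T : Type*} [Group T] (h : Lie.IsoTits T) {K : Type*} [Field K] [IsAlgClosed K] (h5 : (5 : K) ≠ 0)
    {n : ℕ} (τ : T →* GeneralLinearGroup (Fin n) K) (hτ : Function.Injective τ) : 24 ≤ n := by
  obtain ⟨e⟩ := h
  have hfin : Finite Lie.TitsGroup := H408.TitsMod.finite
  obtain ⟨P, hP, hfus⟩ := fiveN_tits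
  let ρ : Lie.TitsGroup →* Module.End K (Fin n → K) :=
    ((Matrix.toLinAlgEquiv' : Matrix (Fin n) (Fin n) K ≃ₐ[K] _) : Matrix (Fin n) (Fin n) K →* _).comp
      ((Units.coeHom _).comp (τ.comp e.symm.toMonoidHom))
  have hρ : Function.Injective ρ := by
    intro a b hab
    have h1 := Matrix.toLinAlgEquiv'.injective hab
    have h2 : τ (e.symm a) = τ (e.symm b) := Units.ext h1
    exact e.symm.injective (hτ h2)
  have hPn : ∃ x ∈ P, x ≠ 1 := by
    by_contra hcon
    push Not at hcon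
    have : P = ⊥ := (Subgroup.eq_bot_iff_forall _).2 hcon
    rw [this, Subgroup.card_bot] at hP
    norm_num at hP
  obtain ⟨x, hx, hx1⟩ := hPn
  have h1 := deg24 (T := Lie.TitsGroup) hP (by rw [H408.TitsMod.card]; norm_num) hfus h5 ρ
    ⟨x, hx, fun h => hx1 (hρ (h.trans (map_one ρ).symm))⟩
  rwa [Module.finrank_fintype_fun_eq_card, Fintype.card_fin] at h1

end Cfsg.Agent.H751.TitsK
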